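import Cfsg.Agent.H390.L8.Dual
import Cfsg.Agent.ChevalleyStructure.HMatDiagAll

/-!
# `E₈ (q)`, box K1a of `H596.L8` (helper390): the parabolic subgroups are triangular
-/

set_option autoImplicit false
set_option linter.unusedSectionVars false

namespace Cfsg.Agent.H390.L8

open Cfsg CoxeterSystem Cfsg.Agent.ChevalleyStructure.CoxeterGeom Cfsg.Agent.Tits.Roots Cfsg.Agent.Tits.Core
  Cfsg.Agent.Tits.RootComb Cfsg.Agent.Nodes.Reps Cfsg.Agent.Nodes.BNOf
  Cfsg.Agent.Nodes.StabComb Cfsg.Agent.Nodes.Bruhat Cfsg.Agent.Nodes.LeviDec Cfsg.Agent.H35.Poin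
  Cfsg.Agent.H35.PoinNum Cfsg.Agent.H35.ExcIdx
  Cfsg.Agent.ChevalleyStructure.CoxeterGeomTypes Cfsg.Lie
open Cfsg.Agent.Nodes.RGDChev Cfsg.Agent.ChevalleyStructure.NPerm
open Cfsg.Agent.ChevalleyStructure Cfsg.Agent.ChevalleyStructure.Elts
open Cfsg.Agent.ChevalleyStructure.Columns Cfsg.Agent.ChevalleyStructure.RootVec
open Cfsg.Agent.H596.L8
open Cfsg.Agent.H597.E8Form (rv rv_rv rv_val lt240)

universe u

variable {K : Type u} [Field K]

/-- the entries of `x_r(t)`, with a natural number -/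
theorem xMat_dg' (r : Fin chevE8.nroots) (t : K) (i j : chevE8.Idx) (h : chevE8.xMat K r t i j ≠ 0) :
    ∃ n : ℕ, ∀ k : Fin 8, dg i k = dg j k + (n : ℤ) * rt chevE8 r k := by
  have hC := hpE8.checked
  rcases j with j | s
  · rcases i with i | u
    · exact ⟨0, fun k => by rw [dg_inl, dg_inl]; simp⟩
    · rw [xMat_inr_inl] at h
      have h1 : u = r := by
        by_contra h1
        rw [if_neg h1] at h
        exact h rfl
      subst h1
      exact ⟨1, fun k => by rw [dg_inl, dg_inr_apply]; simp⟩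
  · rcases i with i | u
    · rw [xMat_inl_inr] at h
      by_cases h1 : s = r
      · rw [if_pos h1] at h
        exact absurd rfl h
      rw [if_neg h1] at h
      by_cases h2 : s.val = chevE8.negIdx.getD r.val 0
      · have h3 : s = rv r := Fin.ext (by rw [h2, rv_negIdx])
        refine ⟨1, fun k => ?_⟩
        rw [h3, dg_rv, dg_inl, Pi.neg_apply, dg_inr_apply]
        simp
      · rw [if_neg h2] at h
        exact absurd rfl h
    · rw [xMat_inr_inr] at h
      by_cases h1 : s = r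
      · rw [if_pos h1] at h
        have h2 : u = r := by
          by_contra h2
          rw [if_neg h2] at h
          exact h rfl
        rw [h1, h2]
        exact ⟨0, fun k => by simp⟩
      rw [if_neg h1] at h
      by_cases h2 : s.val = chevE8.negIdx.getD r.val 0
      · rw [if_pos h2] at h
        by_cases h4 : u = s
        · rw [h4]
          exact ⟨0, fun k => by simp⟩
        rw [if_neg h4] at h
        by_cases h5 : u = r
        · have h3 : s = rv r := Fin.ext (by rw [h2, rv_negIdx])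
          refine ⟨2, fun k => ?_⟩
          rw [h3, h5, dg_rv, Pi.neg_apply, dg_inr_apply]
          push_cast
          ring
        · rw [if_neg h5] at h
          exact absurd rfl h
      · rw [if_neg h2] at h
        by_cases h4 : u = s
        · rw [h4]
          exact ⟨0, fun k => by simp⟩
        rw [if_neg h4, zero_add, chainCoeff_sum chevE8 r.val (Cfsg.Agent.H597.E8Form.good r.val (lt240 r)).sorted] at h
        obtain ⟨e, he, h5⟩ := chSum_ne_zero h
        have h6 : e.1 = u.val := by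
          by_contra h6
          rw [if_neg h6] at h5
          exact h5 rfl
        obtain ⟨n, hn⟩ := List.getElem?_of_mem he
        obtain ⟨-, -, -, h7⟩ := chainEntry_get hC hn
        refine ⟨n + 1, fun k => ?_⟩
        rw [dg_inr_apply, dg_inr_apply, ← h6, h7]

/-- triangular with respect to the degree at `k` -/
def UT (k : Fin 8) (M : Matrix chevE8.Idx chevE8.Idx K) : Prop :=
  ∀ i j : chevE8.Idx, M i j ≠ 0 → dg j k ≤ dg i k

theorem UT.mul {k : Fin 8} {M N : Matrix chevE8.Idx chevE8.Idx K} (hM : UT k M) (hN : UT k N) : UT k (M * N) := by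
  intro i j h
  rw [Matrix.mul_apply] at h
  obtain ⟨l, -, hl⟩ := Finset.exists_ne_zero_of_sum_ne_zero h
  exact (hN l j (right_ne_zero_of_mul hl)).trans (hM i l (left_ne_zero_of_mul hl))

theorem UT.diag {k : Fin 8} {M : Matrix chevE8.Idx chevE8.Idx K} (h : ∀ i j, i ≠ j → M i j = 0) : UT k M := by
  intro i j h1
  have h2 : i = j := by
    by_contra h2
    exact h1 (h i j h2)
  rw [h2]

/-- the elements triangular with respect to the degree at `k` -/
def TR (K : Type u) [Field K] (k : Fin 8) : Subgroup (chevE8.group K) where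
  carrier := {g | UT k (mt g) ∧ UT k (mt g⁻¹)}
  mul_mem' := by
    rintro a b ⟨h1, h2⟩ ⟨h3, h4⟩
    refine ⟨h1.mul h3, ?_⟩
    rw [mul_inv_rev]
    exact h4.mul h2
  one_mem' := by
    have h : UT k (1 : Matrix chevE8.Idx chevE8.Idx K) := UT.diag fun i j h => Matrix.one_apply_ne h
    refine ⟨h, ?_⟩
    rw [inv_one]
    exact h
  inv_mem' := by
    rintro a ⟨h1, h2⟩
    refine ⟨h2, ?_⟩
    rw [inv_inv]
    exact h1

theorem UT_x {k : Fin 8} {r : ℕ} (hr : r < chevE8.nroots) (h0 : 0 ≤ rt chevE8 r k) (t : K) :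
    UT k (chevE8.x K r t) := by
  intro i j h
  rw [Good.x_eq_xMat r hr] at h
  obtain ⟨n, hn⟩ := xMat_dg' ⟨r, hr⟩ t i j h
  rw [hn k]
  have h1 : 0 ≤ (n : ℤ) * rt chevE8 r k := mul_nonneg (Int.natCast_nonneg n) h0
  linarith

theorem XX_le {k : Fin 8} {y : Fin 8 → ℤ} (hy : IsRoot CoxeterMatrix.E₈.toCoxeterSystem hpE8.isCartan y)
    (h0 : 0 ≤ y k) : XX chevE8 8 K y ≤ TR K k := by
  obtain ⟨r, hr, rfl⟩ := (isRoot_iff hpE8 CoxeterMatrix.E₈.toCoxeterSystem y).1 hy
  intro g hg
  rw [Subgroup.mem_subgroupOf, XV_vec hpE8 K hr, Elts.mem_rootSubgroup_iff hpE8.inList] at hg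
  obtain ⟨t, ht⟩ := hg
  constructor
  · show UT k ((g : GL chevE8.Idx K) : Matrix chevE8.Idx chevE8.Idx K)
    rw [ht]
    exact UT_x hr h0 t
  · show UT k (((g⁻¹ : chevE8.group K) : GL chevE8.Idx K) : Matrix chevE8.Idx chevE8.Idx K)
    rw [Subgroup.coe_inv, ht, Elts.xG_inv]
    exact UT_x hr h0 (-t)

/-- the elements of the torus are diagonal -/
theorem TT_diag {g : chevE8.group K} (hg : g ∈ TT chevE8 K) (i j : chevE8.Idx) (hij : i ≠ j) : mt g i j = 0 := by
  have h := HMatDiagAll.diagonalSubgroup_le_diagSub hpE8.inList (Subgroup.mem_subgroupOf.1 hg)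
  rw [TriAbstract.mem_diagSub] at h
  exact h i j hij

theorem TT_le (k : Fin 8) : TT chevE8 K ≤ TR K k := fun _ hg =>
  ⟨UT.diag (TT_diag hg), UT.diag (TT_diag (inv_mem hg))⟩

/-- **K1a** -/
theorem P8_le {J : Set (Fin 8)} {k : Fin 8} (hk : k ∉ J) : P8 K J ≤ TR K k := by
  unfold P8 PJ LJ VJ
  refine sup_le (sup_le (TT_le k) (RGD.Sup_le fun y hy => ?_)) (RGD.Sup_le fun y hy => ?_)
  · exact XX_le hy.1 (by rw [hy.2 k hk])
  · exact XX_le hy.1 (hy.2.1 k)

theorem k1a (K : Type u) [Field K] : K1a K := fun _ _ hk _ hg i j h => (P8_le hk hg).1 i j h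

end Cfsg.Agent.H390.L8
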